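import Cfsg.Agent.Lib.Mathieu.Order7920.Five
import Cfsg.Agent.Lib.BlockSections.Exceptional
import Cfsg.Agent.Lib.CharDegreesTheory.BlockDegrees
import Cfsg.Agent.Lib.CharDegreesTheory.SmallDegrees
import Cfsg.Agent.Lib.Clifford.SignCharacter
import Cfsg.Agent.Lib.Coherence.RationalValue
import Cfsg.Agent.Lib.ZerosCodegree.CharBasics

/-!
The irreducible character degrees of a simple group of order 7920.

At the prime 11 the principal block is the set of characters of degree prime to 11 and has five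
rows constant on the elements of order 11 and two exceptional ones. At the prime 5 every value at an
element of order 5 is an integer, congruent to the degree, and the squares of these values sum to 5.
-/

set_option autoImplicit false
set_option linter.style.haveILetI false

open Cfsg CfsgLib.CharTheory CfsgLib.ZerosCodegree
open scoped ComplexConjugate

namespace CfsgLib.Order7920

universe u

theorem sq_int_sum {α : Type*} [DecidableEq α] {s : Finset α} {a : α → ℤ}
    (hne : ∀ x ∈ s, a x ≠ 0) (hsum : ∑ x ∈ s, a x ^ 2 = 4) :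
    (∃ x, s = {x} ∧ (a x = 2 ∨ a x = -2)) ∨ (s.card = 4 ∧ ∀ x ∈ s, a x = 1 ∨ a x = -1) := by
  have hpos : ∀ x ∈ s, (1 : ℤ) ≤ a x ^ 2 := fun x hx => by
    have := sq_pos_of_ne_zero (hne x hx)
    omega
  have hb : ∀ x ∈ s, -2 ≤ a x ∧ a x ≤ 2 := fun x hx => by
    have h := Finset.single_le_sum (f := fun x => a x ^ 2) (fun y _ => sq_nonneg (a y)) hx
    rw [hsum] at h
    constructor <;> nlinarith
  by_cases h : ∃ x ∈ s, a x = 2 ∨ a x = -2
  · obtain ⟨x, hx, hax⟩ := h
    refine Or.inl ⟨x, Finset.eq_singleton_iff_unique_mem.2 ⟨hx, fun y hy => ?_⟩, hax⟩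
    by_contra hyx
    have h1 := Finset.add_sum_erase s (fun x => a x ^ 2) hx
    have h2 := Finset.single_le_sum (f := fun x => a x ^ 2) (fun z _ => sq_nonneg (a z))
      (Finset.mem_erase.2 ⟨hyx, hy⟩)
    have h3 : a x ^ 2 = 4 := by rcases hax with e | e <;> rw [e] <;> norm_num
    have := hpos y hy
    omega
  · have h1 : ∀ x ∈ s, a x = 1 ∨ a x = -1 := fun x hx => by
      have := hb x hx
      have := hne x hx
      have hn : ¬ (a x = 2 ∨ a x = -2) := fun e => h ⟨x, hx, e⟩
      omega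
    refine Or.inr ⟨?_, h1⟩
    have hc : ∑ x ∈ s, a x ^ 2 = ∑ x ∈ s, (1 : ℤ) := Finset.sum_congr rfl fun x hx => by
      rcases h1 x hx with e | e <;> rw [e] <;> norm_num
    rw [hc, Finset.sum_const, nsmul_one] at hsum
    exact_mod_cast hsum

theorem candidate_degrees : ∀ d < 89, d ∣ 7920 → d ≠ 1 → (d % 5 = 0 ∨ d % 5 = 1 ∨ d % 5 = 4) →
    (d % 11 = 1 → d = 45) ∧ (d % 11 = 10 → d = 10) ∧ (d % 11 = 2 → d = 24) ∧
      (d % 11 = 9 → d = 9 ∨ d = 20) := by
  have h : ∀ d ∈ Finset.range 89, d ∣ 7920 → d ≠ 1 → (d % 5 = 0 ∨ d % 5 = 1 ∨ d % 5 = 4) →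
      (d % 11 = 1 → d = 45) ∧ (d % 11 = 10 → d = 10) ∧ (d % 11 = 2 → d = 24) ∧
        (d % 11 = 9 → d = 9 ∨ d = 20) := by
    decide +kernel
  exact fun d hd => h d (Finset.mem_range.2 hd)

theorem candidate_degrees_eleven : ∀ d < 89, d ∣ 7920 → (d % 5 = 0 ∨ d % 5 = 1 ∨ d % 5 = 4) →
    11 ∣ d → d ∈ ({11, 44, 55, 66} : Finset ℕ) := by
  have h : ∀ d ∈ Finset.range 89, d ∣ 7920 → (d % 5 = 0 ∨ d % 5 = 1 ∨ d % 5 = 4) →
      11 ∣ d → d ∈ ({11, 44, 55, 66} : Finset ℕ) := by
    decide +kernel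
  exact fun d hd => h d (Finset.mem_range.2 hd)

variable {G : Type u} [Group G] [Finite G]

/-- Squares of the degrees. -/
theorem sum_sq [Fintype (IrrCharacter G)] :
    ∑ χ : IrrCharacter G, charDegree (χ : G → ℂ) ^ 2 = Nat.card G := by
  apply Nat.cast_injective (R := ℂ)
  rw [Nat.cast_sum, ← sum_degree_sq]
  exact Finset.sum_congr rfl fun χ _ => by rw [Nat.cast_pow, irr_apply_one_eq χ]

/-- A value congruent to the degree. -/
theorem five_dvd_sub {p : ℕ} [hp : Fact p.Prime] (χ : IrrCharacter G) {x : G} (hx : x ^ p = 1)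
    {v : ℤ} (hv : (χ : G → ℂ) x = v) : (p : ℤ) ∣ (charDegree (χ : G → ℂ) : ℤ) - v := by
  have h := CfsgLib.Clifford.apply_pow_prime_pow_cong (IsIrrCharacter.isCharacter χ.2) x hp.out 1
  rw [pow_one, hx, irr_apply_one_eq, hv, ← Int.cast_pow, ← Int.cast_natCast] at h
  have h1 := CfsgLib.Clifford.intCong_int_dvd hp.out.ne_zero h
  have h2 : (p : ℤ) ∣ v ^ p - v := by
    rw [← ZMod.intCast_zmod_eq_zero_iff_dvd, Int.cast_sub, Int.cast_pow, ZMod.pow_card, sub_self]
  have h3 := dvd_sub h2 h1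
  rwa [show v ^ p - v - (v ^ p - (charDegree (χ : G → ℂ) : ℤ)) = (charDegree (χ : G → ℂ) : ℤ) - v by
    ring] at h3

theorem deg_small (hM : IsM11 G) (χ : IrrCharacter G) :
    charDegree (χ : G → ℂ) < 89 ∧ charDegree (χ : G → ℂ) ∣ 7920 := by
  classical
  haveI := Fintype.ofFinite (IrrCharacter G)
  have h := Finset.single_le_sum (f := fun χ : IrrCharacter G => charDegree (χ : G → ℂ) ^ 2)
    (fun _ _ => Nat.zero_le _) (Finset.mem_univ χ)
  simp only [sum_sq, hM.2] at h
  exact ⟨by nlinarith, hM.2 ▸ charDegree_dvd_card χ⟩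

theorem eq_triv_of_degree_one (hM : IsM11 G) {χ : IrrCharacter G}
    (h : charDegree (χ : G → ℂ) = 1) : χ = trivIrr G := by
  haveI := hM.1
  refine CfsgLib.CharDegreesTheory.SmallDegrees.eq_trivIrr_of_linear ?_ χ (by rw [irr_apply_one_eq, h]; simp)
  by_contra hc
  push Not at hc
  exact CfsgLib.Mathieu.Order7920.noncomm hM ⟨⟨hc⟩⟩

/-- The values at an element of order 5. -/
theorem exists_five_values (hM : IsM11 G) [Fintype (IrrCharacter G)] :
    ∃ v : IrrCharacter G → ℤ, (∀ χ : IrrCharacter G, (5 : ℤ) ∣ (charDegree (χ : G → ℂ) : ℤ) - v χ) ∧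
      ∑ χ, v χ ^ 2 = 5 ∧ ∑ χ : IrrCharacter G, (charDegree (χ : G → ℂ) : ℤ) * v χ = 0 ∧ v (trivIrr G) = 1 := by
  classical
  haveI : Fact (Nat.Prime 5) := ⟨by norm_num⟩
  obtain ⟨R⟩ := (inferInstance : Nonempty (Sylow 5 G))
  have hR := CfsgLib.Mathieu.Order7920.card_sylow_five_eq hM R
  obtain ⟨x, hxR, hxo, hgen⟩ := CfsgLib.Mathieu.Order7920.exists_ne_one hR
  have hC : Nat.card (Subgroup.centralizer ({x} : Set G)) = 5 := by
    rw [CfsgLib.Mathieu.Order7920.centralizer_orderOf_five hM hxo, Nat.card_zpowers, hxo]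
  -- all generators of the Sylow subgroup are conjugate
  have hsurj : Function.Surjective (Subgroup.normalizerMonoidHom (R : Subgroup G)) := by
    rw [← MonoidHom.range_eq_top]
    refine Subgroup.eq_top_of_card_eq _ ?_
    haveI : IsCyclic (R : Subgroup G) := isCyclic_of_prime_card hR
    rw [← Subgroup.index_ker, Subgroup.normalizerMonoidHom_ker,
      Nat.card_congr (IsCyclic.mulAutMulEquiv (R : Subgroup G)).toEquiv, hR,
      Nat.card_eq_fintype_card, ZMod.card_units 5]
    have h := Subgroup.card_mul_index ((Subgroup.centralizer ((R : Subgroup G) : Set G)).subgroupOf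
      (Subgroup.normalizer ((R : Subgroup G) : Set G)))
    rw [Nat.card_congr (Subgroup.subgroupOfEquivOfLe (Subgroup.centralizer_le_normalizer _)).toEquiv,
      CfsgLib.Mathieu.Order7920.centralizer_sylow_five hM R,
      CfsgLib.Mathieu.Order7920.normalizer_five hM R, hR] at h
    rw [CfsgLib.Mathieu.Order7920.centralizer_sylow_five hM R]
    omega
  have hconj : ∀ t : ℕ, t.Coprime 5 → IsConj x (x ^ t) := by
    intro t ht
    haveI : IsCyclic (R : Subgroup G) := isCyclic_of_prime_card hR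
    letI : CommGroup (R : Subgroup G) := IsCyclic.commGroup
    have hcop : (Nat.card (R : Subgroup G)).Coprime t := by rw [hR]; exact ht.symm
    let e : MulAut (R : Subgroup G) :=
      { powCoprime hcop with map_mul' := fun a b => mul_pow a b t }
    obtain ⟨n, hn⟩ := hsurj e
    have h := congrArg (fun f : MulAut (R : Subgroup G) => (f ⟨x, hxR⟩ : G)) hn
    exact isConj_iff.2 ⟨n, h⟩
  have hint : ∀ χ : IrrCharacter G, ∃ n : ℤ, (χ : G → ℂ) x = n := fun χ => by
    refine CfsgLib.Coherence.exists_int_of_forall_pow_eq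
      (IsIrrCharacter.isGeneralizedCharacter χ.2) x fun t ht => ?_
    exact (irr_apply_eq_of_isConj (hconj t (hxo ▸ ht)) χ).symm
  choose v hv using hint
  have hx5 : x ^ 5 = 1 := by rw [← hxo]; exact pow_orderOf_eq_one x
  haveI := Fintype.ofFinite G
  refine ⟨v, fun χ => five_dvd_sub χ hx5 (hv χ), ?_, ?_, ?_⟩
  · have h := sum_mul_conj (G := G) x x
    rw [if_pos (IsConj.refl x), hC] at h
    simp only [hv, map_intCast] at h
    apply Int.cast_injective (α := ℂ)
    push_cast
    refine (Finset.sum_congr rfl fun χ _ => ?_).trans (h.trans (by norm_num))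
    ring
  · have h := sum_degree_mul (G := G) x
    rw [if_neg (fun e : x = 1 => by rw [e, orderOf_one] at hxo; norm_num at hxo)] at h
    simp only [hv, irr_apply_one_eq] at h
    exact_mod_cast h
  · have h := (hv (trivIrr G)).symm
    rw [trivIrr_apply] at h
    exact_mod_cast h

/-- The values at an element of order 5 are determined by the degrees. -/
theorem five_values (hM : IsM11 G) [Fintype (IrrCharacter G)] :
    (∀ χ : IrrCharacter G, charDegree (χ : G → ℂ) % 5 = 0 ∨ charDegree (χ : G → ℂ) % 5 = 1 ∨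
        charDegree (χ : G → ℂ) % 5 = 4) ∧
      (∑ χ : IrrCharacter G, if charDegree (χ : G → ℂ) % 5 = 0 then (0 : ℤ) else 1) = 5 ∧
      (∑ χ : IrrCharacter G, if charDegree (χ : G → ℂ) % 5 = 1 then (charDegree (χ : G → ℂ) : ℤ)
        else if charDegree (χ : G → ℂ) % 5 = 4 then -(charDegree (χ : G → ℂ) : ℤ) else 0) = 0 := by
  classical
  obtain ⟨v, hdvd, hsq, hdeg, htriv⟩ := exists_five_values hM
  have hb : ∀ χ, v χ = 0 ∨ v χ = 1 ∨ v χ = -1 := by
    intro χ
    by_cases hχ : χ = trivIrr G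
    · exact Or.inr (Or.inl (hχ ▸ htriv))
    have hone := Finset.add_sum_erase Finset.univ (fun χ => v χ ^ 2) (Finset.mem_univ (trivIrr G))
    have htwo := Finset.add_sum_erase (Finset.univ.erase (trivIrr G)) (fun χ => v χ ^ 2)
      (Finset.mem_erase.2 ⟨hχ, Finset.mem_univ χ⟩)
    simp only [hsq, htriv] at hone htwo
    have hnn : 0 ≤ ∑ y ∈ (Finset.univ.erase (trivIrr G)).erase χ, v y ^ 2 :=
      Finset.sum_nonneg fun y _ => sq_nonneg _
    by_contra hcon
    have h4 : 4 ≤ v χ ^ 2 := by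
      rcases le_or_gt (2 : ℤ) (v χ) with h | h
      · nlinarith
      · have : v χ ≤ -2 := by omega
        nlinarith
    have hrest : ∑ y ∈ (Finset.univ.erase (trivIrr G)).erase χ, v y ^ 2 = 0 := by omega
    have hv4 : v χ ^ 2 = 4 := by omega
    have hzero : ∀ y ∈ (Finset.univ.erase (trivIrr G)).erase χ, v y = 0 := fun y hy =>
      (sq_eq_zero_iff).1 ((Finset.sum_eq_zero_iff_of_nonneg fun y _ => sq_nonneg (v y)).1 hrest y hy)
    have hd := Finset.add_sum_erase Finset.univ
      (fun χ : IrrCharacter G => (charDegree (χ : G → ℂ) : ℤ) * v χ) (Finset.mem_univ (trivIrr G))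
    rw [← Finset.add_sum_erase (Finset.univ.erase (trivIrr G))
      (fun χ : IrrCharacter G => (charDegree (χ : G → ℂ) : ℤ) * v χ)
      (Finset.mem_erase.2 ⟨hχ, Finset.mem_univ χ⟩),
      Finset.sum_eq_zero (fun y hy => by rw [hzero y hy, mul_zero]), hdeg, htriv,
      charDegree_eq (n := 1) (by rw [trivIrr_apply, Nat.cast_one])] at hd
    have hv2 : v χ = 2 ∨ v χ = -2 := by
      have : (v χ - 2) * (v χ + 2) = 0 := by linear_combination hv4
      rcases mul_eq_zero.1 this with e | e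
      · exact Or.inl (by omega)
      · exact Or.inr (by omega)
    rcases hv2 with e | e <;> rw [e] at hd <;> omega
  refine ⟨fun χ => ?_, ?_, ?_⟩
  · have := hdvd χ
    rcases hb χ with e | e | e <;> rw [e] at this <;> omega
  · rw [← hsq]
    refine Finset.sum_congr rfl fun χ _ => ?_
    have := hdvd χ
    rcases hb χ with e | e | e <;> rw [e] at this ⊢ <;> split_ifs <;> omega
  · rw [← hdeg]
    refine Finset.sum_congr rfl fun χ _ => ?_
    have := hdvd χ
    rcases hb χ with e | e | e <;> rw [e] at this ⊢ <;> split_ifs <;> omega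

/-- The principal 11-block: rows, exceptional pair and their relations. -/
theorem exists_eleven_data (hM : IsM11 G) [Fintype (IrrCharacter G)] :
    ∃ (X Y : Finset (IrrCharacter G)) (a : IrrCharacter G → ℤ) (s : ℤ) (y : ℕ),
      Disjoint X Y ∧ trivIrr G ∉ X ∧ trivIrr G ∉ Y ∧ Y.card = 2 ∧
      (∀ χ ∈ Y, charDegree (χ : G → ℂ) = y) ∧
      (∀ χ, χ ≠ trivIrr G → χ ∉ X → χ ∉ Y → 11 ∣ charDegree (χ : G → ℂ)) ∧
      (∀ χ ∈ X, a χ ≠ 0) ∧ (∀ χ ∈ X, (11 : ℤ) ∣ (charDegree (χ : G → ℂ) : ℤ) - a χ) ∧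
      ∑ χ ∈ X, a χ ^ 2 = 4 ∧ (s = 1 ∨ s = -1) ∧
      s * y + 1 + ∑ χ ∈ X, a χ * (charDegree (χ : G → ℂ) : ℤ) = 0 := by
  classical
  haveI := Fintype.ofFinite G
  haveI h11 : Fact (Nat.Prime 11) := ⟨by norm_num⟩
  obtain ⟨P⟩ := (inferInstance : Nonempty (Sylow 11 G))
  have hP := CfsgLib.Mathieu.Order7920.card_sylow_eleven_eq hM P
  obtain ⟨-, hN, hC⟩ := CfsgLib.Mathieu.Order7920.sylow_eleven hM P
  obtain ⟨u, huP, huo, hgen⟩ := CfsgLib.Mathieu.Order7920.exists_ne_one hP
  have hu1 : u ≠ 1 := fun e => by rw [e, orderOf_one] at huo; norm_num at huo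
  have hF : CfsgLib.BlockSections.Exceptional.IsFrobSylow P 5 := by
    haveI : IsCyclic (P : Subgroup G) := isCyclic_of_prime_card hP
    refine ⟨⟨⟨fun a b => (IsCyclic.commGroup (α := (P : Subgroup G))).mul_comm a b⟩⟩, ?_, ?_⟩
    · have h := Subgroup.card_mul_index ((Subgroup.centralizer ((P : Subgroup G) : Set G)).subgroupOf
        (Subgroup.normalizer ((P : Subgroup G) : Set G)))
      rw [Nat.card_congr (Subgroup.subgroupOfEquivOfLe (Subgroup.centralizer_le_normalizer _)).toEquiv,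
        hC, hN, hP] at h
      rw [hC, Subgroup.relIndex]
      omega
    · intro w hw hw1
      have hw' := CfsgLib.Mathieu.Order7920.zpowers_eq_of_mem hP hw hw1
      have hwo : orderOf w = 11 := by rw [← Nat.card_zpowers, ← hw', hP]
      rw [CfsgLib.Mathieu.Order7920.centralizer_orderOf_eleven hM hwo, ← hw', hC]
      exact inf_eq_left.2 Subgroup.le_normalizer
  obtain ⟨M, hPM⟩ := CfsgLib.CharDegreesTheory.exists_isPModular h11.out
  haveI := CfsgLib.Blocks.isPrime_of_isPModular hPM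
  obtain ⟨D⟩ := CfsgLib.BlockSections.Exceptional.exists_excData hF hPM (by norm_num)
    (by rw [hP]; norm_num)
  -- characters outside the block vanish at `u`
  have hout : ∀ χ : IrrCharacter G, χ ∉ principalBlock M G → 11 ∣ charDegree (χ : G → ℂ) := by
    intro χ hχ
    have h1 := CfsgLib.BlockSections.Exceptional.sum_principal_sq_eq hF hPM huP hu1
    have h2 := sum_mul_conj (G := G) u u
    rw [if_pos (IsConj.refl u), CfsgLib.Mathieu.Order7920.centralizer_orderOf_eleven hM huo,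
      Nat.card_zpowers, huo, ← Finset.sum_sdiff (Finset.subset_univ
        (CfsgLib.BrauerCharacters.blockFinset (principalBlock M G))), h1, hP] at h2
    simp only [Complex.mul_conj, add_eq_right] at h2
    rw [← Complex.ofReal_sum, Complex.ofReal_eq_zero,
      Finset.sum_eq_zero_iff_of_nonneg fun z _ => Complex.normSq_nonneg _] at h2
    have h3 := Complex.normSq_eq_zero.1 (h2 χ (Finset.mem_sdiff.2 ⟨Finset.mem_univ _, fun h =>
      hχ (CfsgLib.BrauerCharacters.mem_blockFinset.1 h)⟩))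
    have h4 := five_dvd_sub (p := 11) χ (x := u) (by rw [← huo]; exact pow_orderOf_eq_one u)
      (v := 0) (by rw [h3, Int.cast_zero])
    rw [sub_zero] at h4
    exact Int.natCast_dvd_natCast.1 h4
  have hY2 : Nat.card D.Y = 2 := by
    have := D.card_Y
    rw [hP] at this
    omega
  obtain ⟨η, hη⟩ : ∃ η, η ∈ D.Y := by
    rw [Nat.card_coe_set_eq] at hY2
    exact Set.nonempty_of_ncard_ne_zero (by omega)
  set y := charDegree (η : G → ℂ) with hy
  set X := D.X.toFinset.erase (trivIrr G) with hX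
  have htX : trivIrr G ∈ D.X.toFinset := Set.mem_toFinset.2 D.triv
  -- the norm and the relation at the identity
  have hnorm := D.norm
  rw [finsum_mem_eq_toFinset_sum, ← Finset.add_sum_erase _ _ htX, D.a_triv, ← hX, hY2] at hnorm
  have hreg := D.reg η hη 1 (by rw [orderOf_one]; norm_num)
  rw [finsum_mem_eq_toFinset_sum, ← Finset.add_sum_erase _ _ htX, D.a_triv, ← hX, hY2,
    trivIrr_apply] at hreg
  simp only [irr_apply_one_eq, ← hy] at hreg
  push_cast at hreg hnorm
  have hregZ : (2 * D.d - D.δ) * y + 1 + ∑ χ ∈ X, D.a χ * (charDegree (χ : G → ℂ) : ℤ) = 0 := by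
    apply Int.cast_injective (α := ℂ)
    push_cast
    linear_combination hreg
  have hne : ∀ χ ∈ X, D.a χ ≠ 0 := fun χ hχ =>
    D.a_ne χ (Set.mem_toFinset.1 (Finset.mem_of_mem_erase hχ))
  have hnn : 0 ≤ ∑ χ ∈ X, D.a χ ^ 2 := Finset.sum_nonneg fun χ _ => sq_nonneg _
  have hu2 : (2 * D.d - D.δ = 1 ∨ 2 * D.d - D.δ = -1) ∧ ∑ χ ∈ X, D.a χ ^ 2 = 4 := by
    have hb : -3 ≤ D.d ∧ D.d ≤ 3 := by constructor <;> nlinarith [sq_nonneg (D.d - D.δ)]
    obtain ⟨hb1, hb2⟩ := hb
    have hy1 : (1 : ℤ) ≤ y := by exact_mod_cast charDegree_pos η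
    rcases D.sign with e | e <;> rw [e] at hnorm hregZ ⊢ <;> interval_cases D.d
    all_goals first
      | (exfalso; norm_num at hnorm; omega)
      | (refine ⟨?_, ?_⟩ <;> norm_num at hnorm ⊢ <;> omega)
      | (exfalso
         have hX0 : X = ∅ := Finset.eq_empty_of_forall_notMem fun χ hχ => by
           have h := Finset.single_le_sum (f := fun χ => D.a χ ^ 2) (fun χ _ => sq_nonneg (D.a χ)) hχ
           have := sq_pos_of_ne_zero (hne χ hχ)
           norm_num at hnorm
           omega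
         rw [hX0, Finset.sum_empty] at hregZ
         omega)
  refine ⟨X, D.Y.toFinset, D.a, 2 * D.d - D.δ, y, ?_, Finset.notMem_erase _ _, ?_, ?_, ?_, ?_, hne,
    ?_, hu2.2, hu2.1, hregZ⟩
  · rw [Finset.disjoint_left]
    intro χ hχ hχ'
    exact Set.disjoint_left.1 D.disj (Set.mem_toFinset.1 (Finset.mem_of_mem_erase hχ))
      (Set.mem_toFinset.1 hχ')
  · rw [Set.mem_toFinset]
    exact fun h => Set.disjoint_left.1 D.disj D.triv h
  · rw [Set.toFinset_card, ← Nat.card_eq_fintype_card, hY2]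
  · intro χ hχ
    have h := D.agree χ (Set.mem_toFinset.1 hχ) η hη 1 (by rw [orderOf_one]; norm_num)
    rw [irr_apply_one_eq, irr_apply_one_eq] at h
    exact_mod_cast h
  · intro χ h1 h2 h3
    refine hout χ fun h => ?_
    rw [D.union] at h
    rcases h with h | h
    · exact h2 (Finset.mem_erase.2 ⟨h1, Set.mem_toFinset.2 h⟩)
    · exact h3 (Set.mem_toFinset.2 h)
  · intro χ hχ
    have := D.dvd χ (Set.mem_toFinset.1 (Finset.mem_of_mem_erase hχ))
    rwa [hP] at this

/-- The degrees prime to 11. -/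
theorem degrees_prime_to_eleven (hM : IsM11 G) [Fintype (IrrCharacter G)] :
    ∃ (A B Y : Finset (IrrCharacter G)),
      A.card = 1 ∧ B.card = 3 ∧ Y.card = 2 ∧
      (∀ χ ∈ A, charDegree (χ : G → ℂ) = 45) ∧ (∀ χ ∈ B, charDegree (χ : G → ℂ) = 10) ∧
      (∀ χ ∈ Y, charDegree (χ : G → ℂ) = 16) ∧
      (∀ χ, χ ≠ trivIrr G → χ ∉ A → χ ∉ B → χ ∉ Y → 11 ∣ charDegree (χ : G → ℂ)) := by
  classical
  obtain ⟨X, Y, a, s, y, -, htX, -, hY2, hy, hout, hne, hdvd, hsum, hs, hreg⟩ :=
    exists_eleven_data hM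
  obtain ⟨hmod, -, -⟩ := five_values hM
  have hydvd : y ∣ 7920 := by
    obtain ⟨η, hη⟩ := Finset.card_pos.1 (show 0 < Y.card by omega)
    exact hy η hη ▸ (deg_small hM η).2
  have hkey := candidate_degrees
  have hd : ∀ χ ∈ X, (a χ = 1 → charDegree (χ : G → ℂ) = 45) ∧
      (a χ = -1 → charDegree (χ : G → ℂ) = 10) ∧ (a χ = 2 → charDegree (χ : G → ℂ) = 24) ∧
        (a χ = -2 → charDegree (χ : G → ℂ) = 9 ∨ charDegree (χ : G → ℂ) = 20) := by
    intro χ hχ
    have h1 : charDegree (χ : G → ℂ) ≠ 1 := fun e => htX (eq_triv_of_degree_one hM e ▸ hχ)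
    obtain ⟨k1, k2, k3, k4⟩ := hkey _ (deg_small hM χ).1 (deg_small hM χ).2 h1 (hmod χ)
    have := hdvd χ hχ
    exact ⟨fun e => k1 (by omega), fun e => k2 (by omega), fun e => k3 (by omega),
      fun e => k4 (by omega)⟩
  rcases sq_int_sum hne hsum with ⟨x, rfl, hx⟩ | ⟨hcard, hpm⟩
  · exfalso
    rw [Finset.sum_singleton] at hreg
    obtain ⟨-, -, h2, hm2⟩ := hd x (Finset.mem_singleton_self x)
    have hy' : y = 49 ∨ y = 17 ∨ y = 39 := by
      rcases hx with e | e <;> rw [e] at hreg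
      · rw [h2 e] at hreg
        rcases hs with f | f <;> rw [f] at hreg <;> omega
      · rcases hm2 e with g | g <;> rw [g] at hreg <;>
          rcases hs with f | f <;> rw [f] at hreg <;> omega
    rcases hy' with rfl | rfl | rfl <;> norm_num at hydvd
  set A := X.filter fun χ => a χ = 1 with hA
  set B := X.filter fun χ => ¬ a χ = 1 with hB
  have hAd : ∀ χ ∈ A, a χ = 1 ∧ charDegree (χ : G → ℂ) = 45 := fun χ hχ => by
    obtain ⟨h, e⟩ := Finset.mem_filter.1 hχ
    exact ⟨e, (hd χ h).1 e⟩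
  have hBd : ∀ χ ∈ B, a χ = -1 ∧ charDegree (χ : G → ℂ) = 10 := fun χ hχ => by
    obtain ⟨h, e⟩ := Finset.mem_filter.1 hχ
    have e' := (hpm χ h).resolve_left e
    exact ⟨e', (hd χ h).2.1 e'⟩
  have hAB : A.card + B.card = 4 := hcard ▸ Finset.card_filter_add_card_filter_not _
  rw [← Finset.sum_filter_add_sum_filter_not X (fun χ => a χ = 1), ← hA, ← hB,
    Finset.sum_congr rfl (g := fun _ => (45 : ℤ)) (fun χ hχ => by
      rw [(hAd χ hχ).1, (hAd χ hχ).2]; norm_num),
    Finset.sum_congr (s₁ := B) rfl (g := fun _ => (-10 : ℤ)) (fun χ hχ => by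
      rw [(hBd χ hχ).1, (hBd χ hχ).2]; norm_num),
    Finset.sum_const, Finset.sum_const, nsmul_eq_mul, nsmul_eq_mul] at hreg
  have hA1 : A.card = 1 ∧ y = 16 := by
    have hA4 : A.card ≤ 4 := by omega
    have : y = 39 ∨ y = 71 ∨ y = 126 ∨ y = 181 ∨ (A.card = 1 ∧ y = 16) := by
      rcases hs with f | f <;> rw [f] at hreg <;> omega
    rcases this with rfl | rfl | rfl | rfl | h <;> first | exact h | norm_num at hydvd
  refine ⟨A, B, Y, hA1.1, by omega, hY2, fun χ h => (hAd χ h).2, fun χ h => (hBd χ h).2,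
    fun χ h => (hy χ h).trans hA1.2, fun χ h1 h2 h3 h4 => hout χ h1 (fun h => ?_) h4⟩
  by_cases e : a χ = 1
  · exact h2 (Finset.mem_filter.2 ⟨h, e⟩)
  · exact h3 (Finset.mem_filter.2 ⟨h, e⟩)

/-- The number of characters of each degree. -/
theorem degree_counts (hM : IsM11 G) :
    Nat.card (IrrCharacter G) = 10 ∧ ∀ n : ℕ,
      Nat.card {χ : IrrCharacter G // charDegree (χ : G → ℂ) = n} =
        if n = 1 ∨ n = 11 ∨ n = 44 ∨ n = 45 ∨ n = 55 then 1 else if n = 10 then 3
          else if n = 16 then 2 else 0 := by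
  classical
  haveI := Fintype.ofFinite (IrrCharacter G)
  obtain ⟨A, B, Y, hA, hB, hY, hAd, hBd, hYd, hout⟩ := degrees_prime_to_eleven hM
  obtain ⟨hmod, hfive, hsgn⟩ := five_values hM
  have h1 : charDegree (trivIrr G : G → ℂ) = 1 :=
    charDegree_eq (by rw [trivIrr_apply, Nat.cast_one])
  set N : ℕ → ℕ := fun n => (Finset.univ.filter fun χ : IrrCharacter G =>
    charDegree (χ : G → ℂ) = n).card with hN
  have hkey := candidate_degrees_eleven
  have hcases : ∀ χ : IrrCharacter G, χ = trivIrr G ∨ χ ∈ A ∨ χ ∈ B ∨ χ ∈ Y ∨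
      charDegree (χ : G → ℂ) ∈ ({11, 44, 55, 66} : Finset ℕ) := by
    intro χ
    by_contra h
    simp only [not_or] at h
    exact h.2.2.2.2 (hkey _ (deg_small hM χ).1 (deg_small hM χ).2 (hmod χ)
      (hout χ h.1 h.2.1 h.2.2.1 h.2.2.2.1))
  have hD : ∀ χ : IrrCharacter G,
      charDegree (χ : G → ℂ) ∈ ({1, 45, 10, 16, 11, 44, 55, 66} : Finset ℕ) := by
    intro χ
    rcases hcases χ with rfl | h | h | h | h
    · simp [h1]
    · simp [hAd χ h]
    · simp [hBd χ h]
    · simp [hYd χ h]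
    · simp only [Finset.mem_insert, Finset.mem_singleton] at h ⊢
      tauto
  have hN1 : N 1 = 1 := by
    refine Finset.card_eq_one.2 ⟨trivIrr G, ?_⟩
    ext χ
    simp only [Finset.mem_filter, Finset.mem_univ, true_and, Finset.mem_singleton]
    exact ⟨eq_triv_of_degree_one hM, fun e => e ▸ h1⟩
  have hfilter : ∀ (S : Finset (IrrCharacter G)) (n : ℕ), n ∈ ({45, 10, 16} : Finset ℕ) →
      (∀ χ ∈ S, charDegree (χ : G → ℂ) = n) → (S = A ∨ S = B ∨ S = Y) → N n = S.card := by
    intro S n hn hS hS'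
    refine congrArg Finset.card ?_
    ext χ
    simp only [Finset.mem_filter, Finset.mem_univ, true_and]
    refine ⟨fun e => ?_, hS χ⟩
    obtain ⟨χ₀, hχ₀⟩ : S.Nonempty := Finset.card_pos.1 (by
      rcases hS' with rfl | rfl | rfl <;> omega)
    have hn' := hS χ₀ hχ₀
    simp only [Finset.mem_insert, Finset.mem_singleton] at hn
    rcases hcases χ with rfl | h | h | h | h
    · omega
    · have := hAd χ h
      rcases hS' with rfl | rfl | rfl
      · exact h
      · have := hBd χ₀ hχ₀; omega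
      · have := hYd χ₀ hχ₀; omega
    · have := hBd χ h
      rcases hS' with rfl | rfl | rfl
      · have := hAd χ₀ hχ₀; omega
      · exact h
      · have := hYd χ₀ hχ₀; omega
    · have := hYd χ h
      rcases hS' with rfl | rfl | rfl
      · have := hAd χ₀ hχ₀; omega
      · have := hBd χ₀ hχ₀; omega
      · exact h
    · simp only [Finset.mem_insert, Finset.mem_singleton] at h
      omega
  have hN45 : N 45 = 1 := (hfilter A 45 (by simp) hAd (Or.inl rfl)).trans hA
  have hN10 : N 10 = 3 := (hfilter B 10 (by simp) hBd (Or.inr (Or.inl rfl))).trans hB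
  have hN16 : N 16 = 2 := (hfilter Y 16 (by simp) hYd (Or.inr (Or.inr rfl))).trans hY
  have hsum : ∀ f : ℕ → ℤ, ∑ χ : IrrCharacter G, f (charDegree (χ : G → ℂ)) =
      ∑ d ∈ ({1, 45, 10, 16, 11, 44, 55, 66} : Finset ℕ), (N d : ℤ) * f d := by
    intro f
    rw [← Finset.sum_fiberwise_of_maps_to (g := fun χ : IrrCharacter G => charDegree (χ : G → ℂ))
      fun χ _ => hD χ]
    refine Finset.sum_congr rfl fun d _ => ?_
    rw [Finset.sum_congr rfl (g := fun _ => f d) fun χ hχ => by rw [(Finset.mem_filter.1 hχ).2],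
      Finset.sum_const, nsmul_eq_mul]
  have hsqZ : ∑ χ : IrrCharacter G, ((charDegree (χ : G → ℂ) : ℤ)) ^ 2 = 7920 := by
    have := sum_sq (G := G)
    rw [hM.2] at this
    exact_mod_cast this
  have e1 := (hsum fun d => (d : ℤ) ^ 2).symm.trans hsqZ
  have e2 := (hsum fun d => if d % 5 = 0 then (0 : ℤ) else 1).symm.trans hfive
  have e3 := (hsum fun d => if d % 5 = 1 then (d : ℤ) else if d % 5 = 4 then -(d : ℤ) else 0).symm.trans
    hsgn
  have e4 := hsum fun _ => 1
  norm_num [Finset.sum_insert, hN1, hN45, hN10, hN16] at e1 e2 e3 e4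
  have h11 : N 11 = 1 ∧ N 44 = 1 ∧ N 55 = 1 ∧ N 66 = 0 := by omega
  obtain ⟨h11, h44, h55, h66⟩ := h11
  refine ⟨?_, fun n => ?_⟩
  · rw [Nat.card_eq_fintype_card]
    norm_num [h11, h44, h55, h66] at e4
    omega
  rw [Nat.card_eq_fintype_card, Fintype.card_subtype]
  show N n = _
  by_cases hn : n ∈ ({1, 45, 10, 16, 11, 44, 55, 66} : Finset ℕ)
  · simp only [Finset.mem_insert, Finset.mem_singleton] at hn
    rcases hn with rfl | rfl | rfl | rfl | rfl | rfl | rfl | rfl <;>
      simp [hN1, hN45, hN10, hN16, h11, h44, h55, h66]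
  · have h0 : N n = 0 := Finset.card_eq_zero.2 (Finset.filter_eq_empty_iff.2 fun χ _ e => hn (e ▸ hD χ))
    simp only [Finset.mem_insert, Finset.mem_singleton, not_or] at hn
    rw [h0, if_neg (by omega), if_neg (by omega), if_neg (by omega)]

end CfsgLib.Order7920
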